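import Mathlib

/-!
# Elementary lemmas on central extensions and braid relations
-/

set_option autoImplicit false

open scoped commutatorElement

namespace Cfsg.Agent.Lib.Helper11.Mult

section A

variable {K : Type*} [Group K]

theorem braid_of_pow {a b : K} (ha : a * a = 1) (hb : b * b = 1) (h : (a * b) ^ 3 = 1) :
    a * b * a = b * a * b := by
  have ha' : a⁻¹ = a := inv_eq_of_mul_eq_one_left ha
  have hb' : b⁻¹ = b := inv_eq_of_mul_eq_one_left hb
  have h1 : a * b * a * (b * a * b) = 1 := by
    rw [← h]; simp only [pow_succ, pow_zero, one_mul, mul_assoc]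
  have h2 := eq_inv_of_mul_eq_one_left h1
  rw [h2, mul_inv_rev, mul_inv_rev, ha', hb', mul_assoc]

theorem comm_of_pow {a b : K} (ha : a * a = 1) (hb : b * b = 1) (h : (a * b) ^ 2 = 1) :
    a * b = b * a := by
  have ha' : a⁻¹ = a := inv_eq_of_mul_eq_one_left ha
  have hb' : b⁻¹ = b := inv_eq_of_mul_eq_one_left hb
  have h1 : a * b * (a * b) = 1 := by rw [← h, pow_two]
  have h2 := eq_inv_of_mul_eq_one_left h1
  rw [h2, mul_inv_rev, ha', hb']

theorem pow_of_braid {a b : K} (ha : a * a = 1) (hb : b * b = 1) (h : a * b * a = b * a * b) :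
    (a * b) ^ 3 = 1 := by
  have h1 : (a * b) ^ 3 = a * b * a * (b * a * b) := by
    simp only [pow_succ, pow_zero, one_mul, mul_assoc]
  rw [h1, h]
  calc b * a * b * (b * a * b) = b * a * (b * b) * a * b := by simp only [mul_assoc]
    _ = b * (a * a) * b := by rw [hb, mul_one]; simp only [mul_assoc]
    _ = 1 := by rw [ha, mul_one, hb]

theorem pow_of_comm {a b : K} (ha : a * a = 1) (hb : b * b = 1) (h : a * b = b * a) :
    (a * b) ^ 2 = 1 := by
  rw [pow_two]
  calc a * b * (a * b) = a * b * (b * a) := by rw [h]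
    _ = a * (b * b) * a := by simp only [mul_assoc]
    _ = 1 := by rw [hb, mul_one, ha]

/-- adjacent nodes have the same square -/
theorem sq_eq_of_braid {a b : K} (h : a * b * a = b * a * b) (ha : ∀ g, g * (a * a) = a * a * g) :
    b * b = a * a := by
  have h1 : SemiconjBy (a * b) a b := by
    show a * b * a = b * (a * b)
    rw [h, mul_assoc]
  have h2 : a * b * (a * a) = b * b * (a * b) := h1.mul_right h1
  rw [ha] at h2
  exact (mul_right_cancel h2).symm

theorem semiconj_unique {r x y y' : K} (h : SemiconjBy r x y) (h' : SemiconjBy r x y') : y = y' := by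
  have h1 : y * r = y' * r := h.symm.trans h'
  exact mul_right_cancel h1

/-- the central commutators with two adjacent nodes agree -/
theorem comm_eq_of_braid {r p q cp cq : K} (hbr : p * q * p = q * p * q)
    (hcp : ∀ g, g * cp = cp * g) (hcq : ∀ g, g * cq = cq * g)
    (hp : r * p = cp * p * r) (hq : r * q = cq * q * r) : cp = cq := by
  have sp : SemiconjBy r p (cp * p) := hp
  have sq : SemiconjBy r q (cq * q) := hq
  have s1 : SemiconjBy r (p * q * p) (cp * p * (cq * q) * (cp * p)) := (sp.mul_right sq).mul_right sp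
  have s2 : SemiconjBy r (q * p * q) (cq * q * (cp * p) * (cq * q)) := (sq.mul_right sp).mul_right sq
  rw [hbr] at s1
  have h1 := semiconj_unique s1 s2
  have e1 : cp * p * (cq * q) * (cp * p) = cp * cq * cp * (p * q * p) := by
    rw [Commute.mul_mul_mul_comm (show Commute p cq from hcq p),
      Commute.mul_mul_mul_comm (show Commute (p * q) cp from hcp _)]
  have e2 : cq * q * (cp * p) * (cq * q) = cq * cp * cq * (q * p * q) := by
    rw [Commute.mul_mul_mul_comm (show Commute q cp from hcp q),
      Commute.mul_mul_mul_comm (show Commute (q * p) cq from hcq _)]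
  rw [e1, e2, hbr] at h1
  have h2 := mul_right_cancel h1
  rw [hcq cp] at h2
  exact mul_left_cancel h2

theorem semi_list (r c : K) (hc : ∀ g, g * c = c * g) (L : List K)
    (h : ∀ p ∈ L, r * p = c * p * r) : r * L.prod = c ^ L.length * L.prod * r := by
  induction L with
  | nil => simp
  | cons p t ih =>
    have h1 := ih (fun q hq => h q (List.mem_cons_of_mem _ hq))
    have h2 := h p (List.mem_cons_self)
    have h3 : p * c ^ t.length = c ^ t.length * p :=
      (Commute.pow_right (show Commute p c from hc p) _)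
    calc r * (p :: t).prod = r * p * t.prod := by rw [List.prod_cons, mul_assoc]
      _ = c * p * (r * t.prod) := by rw [h2]; simp only [mul_assoc]
      _ = c * (p * c ^ t.length) * t.prod * r := by rw [h1]; simp only [mul_assoc]
      _ = c ^ (p :: t).length * (p :: t).prod * r := by
        rw [h3, List.prod_cons, List.length_cons, pow_succ']; simp only [mul_assoc]

theorem semi_pow (r c C : K) (hc : ∀ g, g * c = c * g) (h : r * C = c * C * r) (n : ℕ) :
    r * C ^ n = c ^ n * C ^ n * r := by
  have s : SemiconjBy r C (c * C) := h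
  have s2 : r * C ^ n = (c * C) ^ n * r := s.pow_right n
  rw [s2, Commute.mul_pow (show Commute c C from (hc C).symm)]

theorem commutator_central_left (a b z : K) (hz : ∀ g, g * z = z * g) : ⁅a * z, b⁆ = ⁅a, b⁆ := by
  rw [commutatorElement_def, commutatorElement_def]
  have : a * z * b * (a * z)⁻¹ = a * b * a⁻¹ := by
    rw [mul_inv_rev, mul_assoc a z b, ← hz b]
    simp only [mul_assoc, mul_inv_cancel_left]
  rw [this]

theorem commutator_central (a b z w : K) (hz : ∀ g, g * z = z * g) (hw : ∀ g, g * w = w * g) :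
    ⁅a * z, b * w⁆ = ⁅a, b⁆ := by
  rw [commutator_central_left a _ z hz, ← commutatorElement_inv, commutator_central_left b a w hw,
    commutatorElement_inv]

theorem scale2 (u : K) (hu : ∀ g, g * u = u * g) (a b : K) : a * u * (b * u) = a * b * (u * u) :=
  Commute.mul_mul_mul_comm (show Commute u b from (hu b).symm) a u

theorem scale3 (u : K) (hu : ∀ g, g * u = u * g) (a b c : K) :
    a * u * (b * u) * (c * u) = a * b * c * (u * u * u) := by
  rw [scale2 u hu, Commute.mul_mul_mul_comm (show Commute (u * u) c from ?_)]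
  show u * u * c = c * (u * u)
  rw [mul_assoc, ← hu c, ← mul_assoc, ← hu c, mul_assoc]

theorem scale_list (u : K) (hu : ∀ g, g * u = u * g) (L : List K) :
    (L.map (fun a => a * u)).prod = L.prod * u ^ L.length := by
  induction L with
  | nil => simp
  | cons p t ih =>
    rw [List.map_cons, List.prod_cons, ih, List.prod_cons, List.length_cons, pow_succ']
    exact Commute.mul_mul_mul_comm (show Commute u t.prod from (hu _).symm) p _

end A

section B

variable {Γ G : Type*} [Group Γ] [Group G] (σ : Γ →* G)

theorem central_of_ker (hc : σ.ker ≤ Subgroup.center Γ) {z : Γ} (hz : σ z = 1) :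
    ∀ g, g * z = z * g :=
  Subgroup.mem_center_iff.1 (hc (MonoidHom.mem_ker.2 hz))

theorem exists_ker_mul {a b : Γ} (h : σ a = σ b) : ∃ z, σ z = 1 ∧ a = z * b :=
  ⟨a * b⁻¹, by rw [map_mul, map_inv, h, mul_inv_cancel], by simp⟩

theorem braid_lift (hs : Function.Surjective σ) (hc : σ.ker ≤ Subgroup.center Γ) (y : Γ) (g : G)
    (h : σ y * g * σ y = g * σ y * g) : ∃ y', σ y' = g ∧ y * y' * y = y' * y * y' := by
  obtain ⟨y0, rfl⟩ := hs g
  obtain ⟨z, hz, e⟩ := exists_ker_mul σ (a := y * y0 * y) (b := y0 * y * y0) (by simpa using h)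
  have hzc := central_of_ker σ hc hz
  refine ⟨y0 * z, by rw [map_mul, hz, mul_one], ?_⟩
  calc y * (y0 * z) * y = y * y0 * (z * y) := by simp only [mul_assoc]
    _ = y * y0 * y * z := by rw [← hzc y]; simp only [mul_assoc]
    _ = z * (y0 * y * y0) * z := by rw [e]
    _ = y0 * z * y * (y0 * z) := by
      rw [← hzc (y0 * y * y0)]
      rw [mul_assoc y0 z y, ← hzc y]
      simp only [mul_assoc]
      rw [← mul_assoc z y0 z, ← hzc y0]
      simp only [mul_assoc]

end B

end Cfsg.Agent.Lib.Helper11.Mult
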