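import Cfsg.Agent.Lib.Helper11.Mult.Lifts

/-!
# The lifted generators: equal squares, and non-adjacent nodes commute
-/

set_option autoImplicit false
set_option maxRecDepth 100000
set_option linter.constructorNameAsVariable false

namespace Cfsg.Agent.Lib.Helper11.Mult

open Cfsg.Spor Cfsg.Agent.Lib.Helper11

section

variable {Γ : Type*} [Group Γ] (σ : Γ →* Fi23) (hc : σ.ker ≤ Subgroup.center Γ)
  (y : Fi23.Gen → Γ) (hy : ∀ n, σ (y n) = X n)
  (hbr : ∀ i k, lab i k = 3 → y i * y k * y i = y k * y i * y k)

include hc hy

theorem sq_central (n : Fi23.Gen) : ∀ g, g * (y n * y n) = y n * y n * g :=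
  central_of_ker σ hc (by rw [map_mul, hy, X_sq])

/-- the central commutator of two non-adjacent nodes -/
theorem cc_central (i k : Fi23.Gen) (h : lab i k = 2) :
    ∀ g, g * (y i * y k * (y i)⁻¹ * (y k)⁻¹) = y i * y k * (y i)⁻¹ * (y k)⁻¹ * g :=
  central_of_ker σ hc (by
    rw [map_mul, map_mul, map_mul, map_inv, map_inv, hy, hy, X_comm i k h]
    group)

omit hc hy in
theorem cc_eq (i k : Fi23.Gen) :
    y i * y k = y i * y k * (y i)⁻¹ * (y k)⁻¹ * y k * y i := by group

include hbr

theorem sq_eq (n : Fi23.Gen) : y n * y n = y .d * y .d := by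
  have st : ∀ i k, lab i k = 3 → y k * y k = y i * y i := fun i k h =>
    sq_eq_of_braid (hbr i k h) (sq_central σ hc y hy i)
  have hc' := st .d .c (by decide)
  have hb := (st .c .b (by decide)).trans hc'
  have ha := (st .b .a (by decide)).trans hb
  have he := st .d .e (by decide)
  have hf := (st .e .f (by decide)).trans he
  have hg := (st .f .g (by decide)).trans hf
  have hj := (st .g .j (by decide)).trans hg
  have hh := st .d .h (by decide)
  have hi := (st .h .i (by decide)).trans hh
  cases n <;> first | assumption | rfl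

/-- moving the second node along an edge -/
theorem cc_move (i k k' : Fi23.Gen) (h : lab k k' = 3) (h1 : lab i k = 2) (h2 : lab i k' = 2) :
    y i * y k * (y i)⁻¹ * (y k)⁻¹ = y i * y k' * (y i)⁻¹ * (y k')⁻¹ :=
  comm_eq_of_braid (hbr k k' h) (cc_central σ hc y hy i k h1) (cc_central σ hc y hy i k' h2)
    (cc_eq y i k) (cc_eq y i k')

theorem cm_move2 (i k k' : Fi23.Gen) (h : lab k k' = 3) (h1 : lab i k = 2) (h2 : lab i k' = 2)
    (e : y i * y k = y k * y i) : y i * y k' = y k' * y i := by
  have h3 := cc_move σ hc y hy hbr i k k' h h1 h2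
  have h4 : y i * y k * (y i)⁻¹ * (y k)⁻¹ = 1 := by rw [e]; group
  rw [h4] at h3
  have h5 := cc_eq y i k'
  rw [← h3, one_mul] at h5
  exact h5

theorem cm_move1 (i i' k : Fi23.Gen) (h : lab i i' = 3) (h1 : lab k i = 2) (h2 : lab k i' = 2)
    (e : y i * y k = y k * y i) : y i' * y k = y k * y i' :=
  (cm_move2 σ hc y hy hbr k i i' h h1 h2 e.symm).symm

/-- the node `j` commutes with the nodes of the `E7` diagram -/
theorem cm_j_a : y .j * y .a = y .a * y .j := by
  set c := y .j * y .a * (y .j)⁻¹ * (y .a)⁻¹ with hcdef
  have hcc : ∀ g, g * c = c * g := cc_central σ hc y hy .j .a (by decide)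
  have mv := cc_move σ hc y hy hbr .j
  have eb : c = y .j * y .b * (y .j)⁻¹ * (y .b)⁻¹ := mv .a .b (by decide) (by decide) (by decide)
  have ec : c = y .j * y .c * (y .j)⁻¹ * (y .c)⁻¹ :=
    eb.trans (mv .b .c (by decide) (by decide) (by decide))
  have ed : c = y .j * y .d * (y .j)⁻¹ * (y .d)⁻¹ :=
    ec.trans (mv .c .d (by decide) (by decide) (by decide))
  have ee : c = y .j * y .e * (y .j)⁻¹ * (y .e)⁻¹ :=
    ed.trans (mv .d .e (by decide) (by decide) (by decide))
  have ef : c = y .j * y .f * (y .j)⁻¹ * (y .f)⁻¹ :=
    ee.trans (mv .e .f (by decide) (by decide) (by decide))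
  have eh : c = y .j * y .h * (y .j)⁻¹ * (y .h)⁻¹ :=
    ed.trans (mv .d .h (by decide) (by decide) (by decide))
  have key : ∀ p ∈ [y .a, y .b, y .c, y .d, y .e, y .f, y .h], y .j * p = c * p * y .j := by
    intro p hp
    simp only [List.mem_cons, List.mem_nil_iff, or_false] at hp
    rcases hp with rfl | rfl | rfl | rfl | rfl | rfl | rfl
    · exact cc_eq y .j .a
    · rw [eb]; exact cc_eq y .j .b
    · rw [ec]; exact cc_eq y .j .c
    · rw [ed]; exact cc_eq y .j .d
    · rw [ee]; exact cc_eq y .j .e
    · rw [ef]; exact cc_eq y .j .f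
    · rw [eh]; exact cc_eq y .j .h
  have h1 := semi_list (y .j) c hcc _ key
  have h2 := semi_pow (y .j) (c ^ 7) [y .a, y .b, y .c, y .d, y .e, y .f, y .h].prod
    (fun g => (Commute.pow_right (show Commute g c from hcc g) 7)) h1 9
  have h3 : ∀ g, g * [y .a, y .b, y .c, y .d, y .e, y .f, y .h].prod ^ 9 =
      [y .a, y .b, y .c, y .d, y .e, y .f, y .h].prod ^ 9 * g := by
    apply central_of_ker σ hc
    rw [map_pow, map_list_prod]
    simp only [List.map_cons, List.map_nil, hy, List.prod_cons, List.prod_nil, mul_one]
    rw [← X_c9]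
    simp only [mul_assoc]
  rw [h3, mul_assoc] at h2
  have h4 : (c ^ 7) ^ 9 = 1 := (mul_eq_right.1 h2.symm)
  -- the square of c
  have h5 : c * c = 1 := by
    have s : SemiconjBy (y .j) (y .a) (c * y .a) := cc_eq y .j .a
    have s2 : y .j * (y .a * y .a) = c * y .a * (c * y .a) * y .j := s.mul_right s
    rw [sq_central σ hc y hy .a, Commute.mul_mul_mul_comm (show Commute (y .a) c from hcc _),
      mul_assoc (c * c)] at s2
    exact mul_eq_right.1 s2.symm
  have h6 : c = 1 := by
    have : c ^ 63 = 1 := by rw [← h4, ← pow_mul]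
    have h7 : c ^ 63 = (c * c) ^ 31 * c := by rw [← pow_two, ← pow_mul, ← pow_succ]
    rw [h7, h5, one_pow, one_mul] at this
    exact this
  have h8 := cc_eq y .j .a
  rw [← hcdef, h6, one_mul] at h8
  exact h8

theorem cm_all (i k : Fi23.Gen) (h : lab i k = 2) : y i * y k = y k * y i := by
  have m1 := cm_move1 σ hc y hy hbr
  have m2 := cm_move2 σ hc y hy hbr
  have ja := cm_j_a σ hc y hy hbr
  have jb := m2 .j .a .b (by decide) (by decide) (by decide) ja
  have jc := m2 .j .b .c (by decide) (by decide) (by decide) jb
  have jd := m2 .j .c .d (by decide) (by decide) (by decide) jc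
  have je := m2 .j .d .e (by decide) (by decide) (by decide) jd
  have jf := m2 .j .e .f (by decide) (by decide) (by decide) je
  have jh := m2 .j .d .h (by decide) (by decide) (by decide) jd
  have ji := m2 .j .h .i (by decide) (by decide) (by decide) jh
  have ga := m1 .j .g .a (by decide) (by decide) (by decide) ja
  have gb := m1 .j .g .b (by decide) (by decide) (by decide) jb
  have gc := m1 .j .g .c (by decide) (by decide) (by decide) jc
  have gd := m1 .j .g .d (by decide) (by decide) (by decide) jd
  have ge := m1 .j .g .e (by decide) (by decide) (by decide) je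
  have gh := m1 .j .g .h (by decide) (by decide) (by decide) jh
  have gi := m1 .j .g .i (by decide) (by decide) (by decide) ji
  have fa := m1 .g .f .a (by decide) (by decide) (by decide) ga
  have fb := m1 .g .f .b (by decide) (by decide) (by decide) gb
  have fc := m1 .g .f .c (by decide) (by decide) (by decide) gc
  have fd := m1 .g .f .d (by decide) (by decide) (by decide) gd
  have fh := m1 .g .f .h (by decide) (by decide) (by decide) gh
  have fi := m1 .g .f .i (by decide) (by decide) (by decide) gi
  have ea := m1 .f .e .a (by decide) (by decide) (by decide) fa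
  have eb := m1 .f .e .b (by decide) (by decide) (by decide) fb
  have ec := m1 .f .e .c (by decide) (by decide) (by decide) fc
  have eh := m1 .f .e .h (by decide) (by decide) (by decide) fh
  have ei := m1 .f .e .i (by decide) (by decide) (by decide) fi
  have da := m1 .e .d .a (by decide) (by decide) (by decide) ea
  have db := m1 .e .d .b (by decide) (by decide) (by decide) eb
  have di := m1 .e .d .i (by decide) (by decide) (by decide) ei
  have ca := m1 .d .c .a (by decide) (by decide) (by decide) da
  have ci := m1 .d .c .i (by decide) (by decide) (by decide) di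
  have ch := m2 .c .i .h (by decide) (by decide) (by decide) ci
  have bh := m1 .c .b .h (by decide) (by decide) (by decide) ch
  have bi := m1 .c .b .i (by decide) (by decide) (by decide) ci
  have ah := m1 .b .a .h (by decide) (by decide) (by decide) bh
  have ai := m1 .b .a .i (by decide) (by decide) (by decide) bi
  cases i <;> cases k <;>
    first
    | exact absurd h (by decide)
    | assumption
    | (symm; assumption)

end

end Cfsg.Agent.Lib.Helper11.Mult
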