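import Cfsg.Agent.Lib.Helper11.WE7Main
import Cfsg.Agent.Lib.Helper11.Cover

/-!
# Seven elements of a group which satisfy the Coxeter relations of type `E7`

The ninth power of their product is a central involution of the subgroup they generate.
-/

set_option autoImplicit false
set_option maxRecDepth 100000

namespace Cfsg.Agent.Lib.Helper11.Mult

open Cfsg.Spor Cfsg.Agent.Lib.Helper11

theorem we7_eq_one (e : WExp) (h : wordId (ntOf WE7o.ntl) 6 (e.letters WE7o.INVm) = true) :
    (PresentedGroup.mk (coxRelators WE7.edges ∪ {r | r ∈ WE7.extra}))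
      (e.eval (fun l => WE7o.LTFm.getD l 1)) = 1 := by
  apply inj_of_stabL_bot WE7o.psi _ (WE7o.order WE7M.card_le).2
  rw [map_one]
  exact (WE7o.psi_eval e).trans
    (wordId_spec (ntOf WE7o.ntl) 6 (ntOf_ok WE7o.ntl _ WE7o.netsOK) _ h)

/-- the Coxeter element `g f e d c a b` -/
def cE : WExp := .mul (.mul (.mul (.mul (.mul (.mul (.l 7) (.l 6)) (.l 5)) (.l 4)) (.l 3)) (.l 1)) (.l 2)

/-- the commutator of the ninth power with a letter -/
def cmE (n : ℕ) : WExp := .mul (.mul (.pow cE 9) (.l n)) (.inv (.mul (.l n) (.pow cE 9)))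

set_option maxHeartbeats 0 in
theorem c18OK : wordId (ntOf WE7o.ntl) 6 ((WExp.pow cE 18).letters WE7o.INVm) = true := by
  decide +kernel

set_option maxHeartbeats 0 in
theorem cmOK : ∀ n ∈ [1, 2, 3, 4, 5, 6, 7],
    wordId (ntOf WE7o.ntl) 6 ((cmE n).letters WE7o.INVm) = true := by
  decide +kernel

section

variable {K : Type*} [Group K] (f : WE7.Gen → K)
  (hcox : ∀ x y, (f x * f y) ^ coxLabel WE7.edges x y = 1)

include hcox

theorem e7_rels : ∀ r ∈ coxRelators WE7.edges ∪ {r | r ∈ WE7.extra}, FreeGroup.lift f r = 1 := by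
  apply lift_rels
  · intro x _ y _
    exact hcox x y
  · intro r hr
    simp only [WE7.extra, List.mem_cons, List.mem_nil_iff, or_false] at hr
    subst hr
    rw [map_mul, FreeGroup.lift_apply_of]
    have h := hcox .a .a
    have e : coxLabel WE7.edges .a .a = 1 := rfl
    rw [e, pow_one] at h
    exact h

theorem e7_eval (e : WExp) (h : wordId (ntOf WE7o.ntl) 6 (e.letters WE7o.INVm) = true) :
    e.eval (fun n => FreeGroup.lift f (WE7o.LTFm.getD n 1)) = 1 := by
  have h1 := congrArg (PresentedGroup.toGroup (e7_rels f hcox)) (we7_eq_one e h)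
  rw [map_one] at h1
  have h2 : PresentedGroup.toGroup (e7_rels f hcox)
      ((PresentedGroup.mk (coxRelators WE7.edges ∪ {r | r ∈ WE7.extra}))
      (e.eval (fun l => WE7o.LTFm.getD l 1))) =
      FreeGroup.lift f (e.eval (fun l => WE7o.LTFm.getD l 1)) := rfl
  rw [h2, WExp.map_eval] at h1
  exact h1

theorem e7_pow18 : (f .g * f .f * f .e * f .d * f .c * f .a * f .b) ^ 18 = 1 := by
  have h := e7_eval f hcox _ c18OK
  simpa [WExp.eval, cE, WE7o.LTFm] using h

theorem e7_comm (x : WE7.Gen) :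
    (f .g * f .f * f .e * f .d * f .c * f .a * f .b) ^ 9 * f x =
      f x * (f .g * f .f * f .e * f .d * f .c * f .a * f .b) ^ 9 := by
  have key : ∀ n ∈ [1, 2, 3, 4, 5, 6, 7],
      (f .g * f .f * f .e * f .d * f .c * f .a * f .b) ^ 9 * FreeGroup.lift f (WE7o.LTFm.getD n 1) =
      FreeGroup.lift f (WE7o.LTFm.getD n 1) * (f .g * f .f * f .e * f .d * f .c * f .a * f .b) ^ 9 := by
    intro n hn
    have h := e7_eval f hcox _ (cmOK n hn)
    have h2 : (cmE n).eval (fun n => FreeGroup.lift f (WE7o.LTFm.getD n 1)) =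
      ((f .g * f .f * f .e * f .d * f .c * f .a * f .b) ^ 9 * FreeGroup.lift f (WE7o.LTFm.getD n 1)) *
      (FreeGroup.lift f (WE7o.LTFm.getD n 1) * (f .g * f .f * f .e * f .d * f .c * f .a * f .b) ^ 9)⁻¹ := by
      simp [WExp.eval, cE, cmE, WE7o.LTFm]
    rw [h2] at h
    exact mul_inv_eq_one.1 h
  cases x
  · simpa [WE7o.LTFm] using key 1 (by simp)
  · simpa [WE7o.LTFm] using key 2 (by simp)
  · simpa [WE7o.LTFm] using key 3 (by simp)
  · simpa [WE7o.LTFm] using key 4 (by simp)
  · simpa [WE7o.LTFm] using key 5 (by simp)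
  · simpa [WE7o.LTFm] using key 6 (by simp)
  · simpa [WE7o.LTFm] using key 7 (by simp)

end

end Cfsg.Agent.Lib.Helper11.Mult
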