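import Cfsg.Agent.S1697
import Cfsg.Agent.Lib.Helper11.Cover

/-!
# Three identities in the presented group `Fi23`, checked in its permutation model
-/

set_option autoImplicit false
set_option maxRecDepth 100000

namespace Cfsg.Agent.Lib.Helper11.Mult

open Cfsg.Spor Cfsg.Agent.Lib.Helper11

/-- the generators of `Fi23` -/
def X (n : Fi23.Gen) : Fi23 := PresentedGroup.of n

theorem fi23_finite : Finite Fi23 := Nat.finite_of_card_ne_zero Cfsg.Agent.S1697.card_le.1

theorem fi23_eq (e1 e2 : WExp)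
    (h : wordId (ntOf Fi23o.ntl) 15 ((WExp.mul e1 (.inv e2)).letters Fi23o.INVm) = true) :
    e1.eval (fun l => (PresentedGroup.mk (coxRelators Fi23.edges ∪ {r | r ∈ Fi23.extra}))
      (Fi23o.LTFm.getD l 1)) =
    e2.eval (fun l => (PresentedGroup.mk (coxRelators Fi23.edges ∪ {r | r ∈ Fi23.extra}))
      (Fi23o.LTFm.getD l 1)) := by
  have h1 : (PresentedGroup.mk (coxRelators Fi23.edges ∪ {r | r ∈ Fi23.extra}))
      ((WExp.mul e1 (.inv e2)).eval (fun l => Fi23o.LTFm.getD l 1)) = 1 := by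
    apply inj_of_stabL_bot Fi23o.psi _ (Fi23o.order Cfsg.Agent.S1697.card_le).2
    rw [map_one]
    exact (Fi23o.psi_eval _).trans
      (wordId_spec (ntOf Fi23o.ntl) 15 (ntOf_ok Fi23o.ntl _ Fi23o.netsOK) _ h)
  rw [WExp.map_eval] at h1
  exact mul_inv_eq_one.1 h1

/-- the word `(g f e d c b h)^9` -/
def lE : WExp := .pow (.mul (.mul (.mul (.mul (.mul (.mul (.l 7) (.l 6)) (.l 5)) (.l 4)) (.l 3)) (.l 2)) (.l 9)) 9

/-- the word `(d c b d e f d h i)^5` -/
def rE : WExp := .pow (.mul (.mul (.mul (.mul (.mul (.mul (.mul (.mul (.l 4) (.l 3)) (.l 2)) (.l 4)) (.l 5)) (.l 6)) (.l 4)) (.l 9)) (.l 10)) 5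

set_option maxHeartbeats 0 in
theorem id1OK : wordId (ntOf Fi23o.ntl) 15 ((WExp.mul (.mul (.mul lE (.l 8)) lE)
    (.inv (.mul (.mul (.l 8) lE) (.l 8)))).letters Fi23o.INVm) = true := by decide +kernel

set_option maxHeartbeats 0 in
theorem id2OK : wordId (ntOf Fi23o.ntl) 15 ((WExp.mul (.mul lE (.l 10))
    (.inv (.mul (.l 10) lE))).letters Fi23o.INVm) = true := by decide +kernel

set_option maxHeartbeats 0 in
theorem id3OK : wordId (ntOf Fi23o.ntl) 15 ((WExp.mul (.mul (.mul (.l 4) rE) (.l 4))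
    (.inv (.mul (.mul rE (.l 4)) rE))).letters Fi23o.INVm) = true := by decide +kernel

theorem fi23_id1 :
    (X .g * X .f * X .e * X .d * X .c * X .b * X .h) ^ 9 * X .j *
      (X .g * X .f * X .e * X .d * X .c * X .b * X .h) ^ 9 =
    X .j * (X .g * X .f * X .e * X .d * X .c * X .b * X .h) ^ 9 * X .j :=
  fi23_eq _ _ id1OK

theorem fi23_id2 :
    (X .g * X .f * X .e * X .d * X .c * X .b * X .h) ^ 9 * X .i =
    X .i * (X .g * X .f * X .e * X .d * X .c * X .b * X .h) ^ 9 :=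
  fi23_eq _ _ id2OK

theorem fi23_id3 :
    X .d * (X .d * X .c * X .b * X .d * X .e * X .f * X .d * X .h * X .i) ^ 5 * X .d =
    (X .d * X .c * X .b * X .d * X .e * X .f * X .d * X .h * X .i) ^ 5 * X .d *
      (X .d * X .c * X .b * X .d * X .e * X .f * X .d * X .h * X .i) ^ 5 :=
  fi23_eq _ _ id3OK

end Cfsg.Agent.Lib.Helper11.Mult
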