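import Cfsg.Agent.Lib.Helper11.Mult.Basic
import Cfsg.Agent.Lib.Helper11.Mult.Fi23Id

/-!
# Lifting the generators of `Fi23` to a central extension
-/

set_option autoImplicit false
set_option maxRecDepth 100000
set_option linter.constructorNameAsVariable false

namespace Cfsg.Agent.Lib.Helper11.Mult

open Cfsg.Spor Cfsg.Agent.Lib.Helper11

/-- the label of a pair of nodes -/
abbrev lab (i k : Fi23.Gen) : ℕ := coxLabel Fi23.edges i k

theorem X_rel (i k : Fi23.Gen) : (X i * X k) ^ lab i k = 1 :=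
  cox_rel Fi23.edges Fi23.extra i k (by cases i <;> decide) (by cases k <;> decide)

theorem X_sq (i : Fi23.Gen) : X i * X i = 1 := by
  have h := X_rel i i
  have e : lab i i = 1 := by cases i <;> rfl
  rw [e, pow_one] at h
  exact h

theorem X_braid (i k : Fi23.Gen) (h : lab i k = 3) : X i * X k * X i = X k * X i * X k := by
  have h1 := X_rel i k
  rw [h] at h1
  exact braid_of_pow (X_sq i) (X_sq k) h1

theorem X_comm (i k : Fi23.Gen) (h : lab i k = 2) : X i * X k = X k * X i := by
  have h1 := X_rel i k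
  rw [h] at h1
  exact comm_of_pow (X_sq i) (X_sq k) h1

theorem X_c9 : (X .a * X .b * X .c * X .d * X .e * X .f * X .h) ^ 9 = 1 := by
  have h := extra_rel Fi23.edges Fi23.extra
    ((Fi23.a * Fi23.b * Fi23.c * Fi23.d * Fi23.e * Fi23.f * Fi23.h) ^ 9) (by simp [Fi23.extra])
  rw [map_pow, map_mul, map_mul, map_mul, map_mul, map_mul, map_mul] at h
  exact h

theorem X_s10 : (X .d * X .c * X .b * X .d * X .e * X .f * X .d * X .h * X .i) ^ 10 = 1 := by
  have h := extra_rel Fi23.edges Fi23.extra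
    ((Fi23.d * Fi23.c * Fi23.b * Fi23.d * Fi23.e * Fi23.f * Fi23.d * Fi23.h * Fi23.i) ^ 10)
    (by simp [Fi23.extra])
  rw [map_pow, map_mul, map_mul, map_mul, map_mul, map_mul, map_mul, map_mul, map_mul] at h
  exact h

theorem lab_cases (i k : Fi23.Gen) : (i = k ∧ lab i k = 1) ∨ lab i k = 2 ∨ lab i k = 3 := by
  cases i <;> cases k <;> decide

/-- the relations in power form -/
theorem rel_of_sys {K : Type*} [Group K] (v : Fi23.Gen → K) (hsq : ∀ n, v n * v n = 1)
    (hbr : ∀ i k, lab i k = 3 → v i * v k * v i = v k * v i * v k)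
    (hcm : ∀ i k, lab i k = 2 → v i * v k = v k * v i) (i k : Fi23.Gen) :
    (v i * v k) ^ lab i k = 1 := by
  rcases lab_cases i k with ⟨rfl, h⟩ | h | h
  · rw [h, pow_one]; exact hsq i
  · rw [h]; exact pow_of_comm (hsq i) (hsq k) (hcm i k h)
  · rw [h]; exact pow_of_braid (hsq i) (hsq k) (hbr i k h)

section

variable {Γ : Type*} [Group Γ] (σ : Γ →* Fi23)

theorem exists_lifts (hs : Function.Surjective σ) (hc : σ.ker ≤ Subgroup.center Γ) :
    ∃ y : Fi23.Gen → Γ, (∀ n, σ (y n) = X n) ∧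
      ∀ i k, lab i k = 3 → y i * y k * y i = y k * y i * y k := by
  obtain ⟨yd, hd⟩ := hs (X .d)
  obtain ⟨yc, hc', bdc⟩ := braid_lift σ hs hc yd (X .c) (by rw [hd]; exact X_braid _ _ (by decide))
  obtain ⟨yb, hb, bcb⟩ := braid_lift σ hs hc yc (X .b) (by rw [hc']; exact X_braid _ _ (by decide))
  obtain ⟨ya, ha, bba⟩ := braid_lift σ hs hc yb (X .a) (by rw [hb]; exact X_braid _ _ (by decide))
  obtain ⟨ye, he, bde⟩ := braid_lift σ hs hc yd (X .e) (by rw [hd]; exact X_braid _ _ (by decide))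
  obtain ⟨yf, hf, bef⟩ := braid_lift σ hs hc ye (X .f) (by rw [he]; exact X_braid _ _ (by decide))
  obtain ⟨yg, hg, bfg⟩ := braid_lift σ hs hc yf (X .g) (by rw [hf]; exact X_braid _ _ (by decide))
  obtain ⟨yj, hj, bgj⟩ := braid_lift σ hs hc yg (X .j) (by rw [hg]; exact X_braid _ _ (by decide))
  obtain ⟨yh, hh, bdh⟩ := braid_lift σ hs hc yd (X .h) (by rw [hd]; exact X_braid _ _ (by decide))
  obtain ⟨yi, hi, bhi⟩ := braid_lift σ hs hc yh (X .i) (by rw [hh]; exact X_braid _ _ (by decide))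
  refine ⟨fun n => match n with
    | .a => ya | .b => yb | .c => yc | .d => yd | .e => ye | .f => yf | .g => yg | .j => yj
    | .h => yh | .i => yi, ?_, ?_⟩
  · intro n
    cases n <;> assumption
  · intro i k h
    cases i <;> cases k <;>
      first
      | exact absurd h (by decide)
      | assumption
      | (symm; assumption)

end

end Cfsg.Agent.Lib.Helper11.Mult
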