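import Cfsg.Agent.Lib.Helper11.Fi24Spider

/-!
# Ten elements of a group which satisfy the relations of the auxiliary presentation `P3`

They satisfy the spider relation.
-/

set_option autoImplicit false
set_option maxRecDepth 100000

namespace Cfsg.Agent.Lib.Helper11.Mult

open Cfsg.Spor Cfsg.Agent.Lib.Helper11

/-- the spider word `(d e f d c b d h i)^10` -/
def spE2 : WExp := .pow (.mul (.mul (.mul (.mul (.mul (.mul (.mul (.mul (.l 6) (.l 7)) (.l 8)) (.l 6)) (.l 5)) (.l 4)) (.l 6)) (.l 9)) (.l 10)) 10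

set_option maxHeartbeats 0 in
theorem sp2OK : wordId (ntOf P3o.ntl) 15 (spE2.letters P3o.INVm) = true := by decide +kernel

theorem p3_eq_one : (PresentedGroup.mk (coxRelators P3.edges ∪ {r | r ∈ P3.extra}))
      (spE2.eval (fun l => P3o.LTFm.getD l 1)) = 1 := by
  apply inj_of_stabL_bot P3o.psi _ (P3o.order Fi24S.card_le3).2
  rw [map_one]
  exact (P3o.psi_eval spE2).trans
    (wordId_spec (ntOf P3o.ntl) 15 (ntOf_ok P3o.ntl _ P3o.netsOK) _ sp2OK)

section

variable {K : Type*} [Group K] (f : P3.Gen → K)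
  (hcox : ∀ x y, (f x * f y) ^ coxLabel P3.edges x y = 1)
  (hl : f .l = (f .a * f .b * f .c * f .d * f .e * f .f * f .h) ^ 9)

include hcox hl

theorem p3_rels : ∀ r ∈ coxRelators P3.edges ∪ {r | r ∈ P3.extra}, FreeGroup.lift f r = 1 := by
  apply lift_rels
  · intro x _ y _
    exact hcox x y
  · intro r hr
    simp only [P3.extra, List.mem_cons, List.mem_nil_iff, or_false] at hr
    subst hr
    simp only [map_mul, map_inv, map_pow, FreeGroup.lift_apply_of]
    rw [hl]
    exact mul_inv_cancel _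

theorem p3_spider :
    (f .d * f .e * f .f * f .d * f .c * f .b * f .d * f .h * f .i) ^ 10 = 1 := by
  have h1 := congrArg (PresentedGroup.toGroup (p3_rels f hcox hl)) p3_eq_one
  rw [map_one] at h1
  have h2 : PresentedGroup.toGroup (p3_rels f hcox hl)
      ((PresentedGroup.mk (coxRelators P3.edges ∪ {r | r ∈ P3.extra}))
      (spE2.eval (fun l => P3o.LTFm.getD l 1))) =
      FreeGroup.lift f (spE2.eval (fun l => P3o.LTFm.getD l 1)) := rfl
  rw [h2, WExp.map_eval] at h1
  simpa [WExp.eval, spE2, P3o.LTFm] using h1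

end

end Cfsg.Agent.Lib.Helper11.Mult
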