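import Cfsg.Agent.Lib.Helper11.Mult.Norm
import Cfsg.Agent.Lib.Helper11.Mult.P3Id
import Cfsg.Agent.Lib.Helper28.Schur1

/-!
# The Schur multiplier of the presented group `Fi23` is trivial
-/

set_option autoImplicit false
set_option maxRecDepth 100000
set_option linter.constructorNameAsVariable false

open scoped commutatorElement

namespace Cfsg.Agent.Lib.Helper11.Mult

open Cfsg Cfsg.Spor Cfsg.Agent.Lib.Helper11

theorem inv3_sq {K : Type*} [Group K] {a b : K} (ha : a * a = 1) (hb : b * b = 1) :
    a * b * a * (a * b * a) = 1 := by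
  calc a * b * a * (a * b * a) = a * b * (a * a) * b * a := by simp only [mul_assoc]
    _ = a * (b * b) * a := by rw [ha, mul_one]; simp only [mul_assoc]
    _ = 1 := by rw [hb, mul_one, ha]

/-- the images of the generators of the auxiliary presentation -/
def p3map {Γ : Type*} (L : Γ) (y : Fi23.Gen → Γ) : P3.Gen → Γ
  | .l => L | .k => y .j | .a => y .g | .b => y .f | .c => y .e | .d => y .d | .e => y .c
  | .f => y .b | .h => y .h | .i => y .i

section

variable {Γ : Type*} [Group Γ] (σ : Γ →* Fi23) (hc : σ.ker ≤ Subgroup.center Γ)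
  (y : Fi23.Gen → Γ) (hy : ∀ n, σ (y n) = X n) (hrel : ∀ i k, (y i * y k) ^ lab i k = 1)

include hrel in
theorem y_sq (n : Fi23.Gen) : y n * y n = 1 := by
  have h := hrel n n
  have e : lab n n = 1 := by cases n <;> rfl
  rw [e, pow_one] at h
  exact h

include hc in
theorem eq_of_inv (hodd : ∀ ζ, σ ζ = 1 → ζ * ζ = 1 → ζ = 1) {A B : Γ} (hAB : σ A = σ B)
    (hA : A * A = 1) (hB : B * B = 1) : A = B := by
  obtain ⟨ζ, hζ, e⟩ := exists_ker_mul σ hAB
  have hζc := central_of_ker σ hc hζ
  have h1 : ζ * ζ = 1 := by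
    have h2 : ζ * B * (ζ * B) = ζ * ζ * (B * B) :=
      Commute.mul_mul_mul_comm (show Commute B ζ from hζc B) ζ B
    rw [← e, hA, hB, mul_one] at h2
    exact h2.symm
  rw [e, hodd ζ hζ h1, one_mul]

include hc hy hrel

/-- the spider relation, if the kernel has no involution -/
theorem spider_odd (hodd : ∀ ζ, σ ζ = 1 → ζ * ζ = 1 → ζ = 1) :
    (y .d * y .c * y .b * y .d * y .e * y .f * y .d * y .h * y .i) ^ 10 = 1 := by
  have ysq := y_sq y hrel
  have hLL : (y .g * y .f * y .e * y .d * y .c * y .b * y .h) ^ 9 *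
      (y .g * y .f * y .e * y .d * y .c * y .b * y .h) ^ 9 = 1 := by
    rw [← pow_add]; exact l18 y hrel
  have hXLL : (X .g * X .f * X .e * X .d * X .c * X .b * X .h) ^ 9 *
      (X .g * X .f * X .e * X .d * X .c * X .b * X .h) ^ 9 = 1 := by
    rw [← pow_add]; exact l18 X X_rel
  have hcomm := l_comm y hrel
  have hσL : σ ((y .g * y .f * y .e * y .d * y .c * y .b * y .h) ^ 9) =
      (X .g * X .f * X .e * X .d * X .c * X .b * X .h) ^ 9 := by
    rw [map_pow, map_mul, map_mul, map_mul, map_mul, map_mul, map_mul, hy, hy, hy, hy, hy, hy, hy]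
  have hl : (y .g * y .f * y .e * y .d * y .c * y .b * y .h) ^ 9 =
      (y .g * y .f * y .e * y .d * y .c * y .b * y .h) ^ 9 := rfl
  generalize hLdef : (y .g * y .f * y .e * y .d * y .c * y .b * y .h) ^ 9 = L at hLL hcomm hσL
  rw [hLdef] at hl
  nth_rewrite 2 [← hLdef] at hl
  have hLj : L * y .j * L = y .j * L * y .j := by
    apply eq_of_inv σ hc hodd _ (inv3_sq hLL (ysq .j)) (inv3_sq (ysq .j) hLL)
    rw [map_mul, map_mul, map_mul, map_mul, hσL, hy]
    exact fi23_id1
  have hLi : L * y .i = y .i * L := by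
    have h1 : L * y .i * L = y .i := by
      apply eq_of_inv σ hc hodd _ (inv3_sq hLL (ysq .i)) (ysq .i)
      rw [map_mul, map_mul, hσL, hy, fi23_id2, mul_assoc, hXLL, mul_one]
    calc L * y .i = L * y .i * (L * L) := by rw [hLL, mul_one]
      _ = L * y .i * L * L := by simp only [mul_assoc]
      _ = y .i * L := by rw [h1]
  have hg := hcomm .g
  have hf := hcomm .f
  have he := hcomm .e
  have hd := hcomm .d
  have hc' := hcomm .c
  have hb := hcomm .a
  have hh := hcomm .b
  have hcox : ∀ u v, (p3map L y u * p3map L y v) ^ coxLabel P3.edges u v = 1 := by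
    intro u v
    cases u <;> cases v <;>
      first
      | exact hrel _ _
      | exact (pow_one _).trans hLL
      | exact pow_of_braid hLL (ysq _) hLj
      | exact pow_of_braid (ysq _) hLL hLj.symm
      | exact pow_of_comm hLL (ysq _) hg
      | exact pow_of_comm hLL (ysq _) hf
      | exact pow_of_comm hLL (ysq _) he
      | exact pow_of_comm hLL (ysq _) hd
      | exact pow_of_comm hLL (ysq _) hc'
      | exact pow_of_comm hLL (ysq _) hb
      | exact pow_of_comm hLL (ysq _) hh
      | exact pow_of_comm hLL (ysq _) hLi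
      | exact pow_of_comm (ysq _) hLL hg.symm
      | exact pow_of_comm (ysq _) hLL hf.symm
      | exact pow_of_comm (ysq _) hLL he.symm
      | exact pow_of_comm (ysq _) hLL hd.symm
      | exact pow_of_comm (ysq _) hLL hc'.symm
      | exact pow_of_comm (ysq _) hLL hb.symm
      | exact pow_of_comm (ysq _) hLL hh.symm
      | exact pow_of_comm (ysq _) hLL hLi.symm
  exact p3_spider (p3map L y) hcox hl

/-- the spider relation, if the kernel has exponent two -/
theorem spider_two (htwo : ∀ ζ, σ ζ = 1 → ζ * ζ = 1) :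
    (y .d * y .c * y .b * y .d * y .e * y .f * y .d * y .h * y .i) ^ 10 = 1 := by
  have ysq := y_sq y hrel
  have hσS : σ (y .d * y .c * y .b * y .d * y .e * y .f * y .d * y .h * y .i) =
      X .d * X .c * X .b * X .d * X .e * X .f * X .d * X .h * X .i := by
    rw [map_mul, map_mul, map_mul, map_mul, map_mul, map_mul, map_mul, map_mul,
      hy, hy, hy, hy, hy, hy, hy]
  generalize y .d * y .c * y .b * y .d * y .e * y .f * y .d * y .h * y .i = S at hσS
  have hs1 : σ (S ^ 10) = 1 := by rw [map_pow, hσS]; exact X_s10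
  have hsc := central_of_ker σ hc hs1
  have hrr : S ^ 5 * S ^ 5 = S ^ 10 := by rw [← pow_add]
  have hσr : σ (S ^ 5) = (X .d * X .c * X .b * X .d * X .e * X .f * X .d * X .h * X .i) ^ 5 := by
    rw [map_pow, hσS]
  generalize S ^ 5 = r at hrr hσr
  generalize S ^ 10 = s at hs1 hsc hrr
  obtain ⟨ζ, hζ, e⟩ := exists_ker_mul σ (a := y .d * r * y .d) (b := r * y .d * r) (by
    rw [map_mul, map_mul, map_mul, map_mul, hσr, hy]
    exact fi23_id3)
  have hζc := central_of_ker σ hc hζ
  have hA : y .d * r * y .d * (y .d * r * y .d) = s := by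
    calc y .d * r * y .d * (y .d * r * y .d) = y .d * r * (y .d * y .d) * r * y .d := by
          simp only [mul_assoc]
      _ = y .d * (r * r) * y .d := by rw [ysq, mul_one]; simp only [mul_assoc]
      _ = s * (y .d * y .d) := by rw [hrr, hsc (y .d), mul_assoc]
      _ = s := by rw [ysq, mul_one]
  have hB : r * y .d * r * (r * y .d * r) = s * s := by
    calc r * y .d * r * (r * y .d * r) = r * (y .d * (r * r)) * y .d * r := by simp only [mul_assoc]
      _ = r * s * (y .d * y .d) * r := by rw [hrr, hsc (y .d)]; simp only [mul_assoc]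
      _ = s * (r * r) := by rw [ysq, mul_one, hsc r, mul_assoc]
      _ = s * s := by rw [hrr]
  have h2 : ζ * (r * y .d * r) * (ζ * (r * y .d * r)) = ζ * ζ * (r * y .d * r * (r * y .d * r)) :=
    Commute.mul_mul_mul_comm (show Commute (r * y .d * r) ζ from hζc _) ζ _
  rw [← e, hA, hB, htwo ζ hζ, one_mul] at h2
  exact (mul_eq_left.1 h2.symm)

end

theorem no_prime_stem (p : ℕ) (Γ : Type) [Group Γ] [Finite Γ] (σ : Γ →* Fi23) (hp : p.Prime)
    (hσ : IsStemExtension σ) (hcard : Nat.card σ.ker = p) : False := by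
  obtain ⟨hs, hc, hd⟩ := hσ
  obtain ⟨y, hy, hrel, hC9⟩ := exists_norm_lifts σ hs hc
  have hpow : ∀ ζ, σ ζ = 1 → ζ ^ p = 1 := by
    intro ζ hζ
    have h1 : (⟨ζ, MonoidHom.mem_ker.2 hζ⟩ : σ.ker) ^ Nat.card σ.ker = 1 := pow_card_eq_one'
    rw [hcard] at h1
    exact congrArg Subtype.val h1
  have hS : (y .d * y .c * y .b * y .d * y .e * y .f * y .d * y .h * y .i) ^ 10 = 1 := by
    rcases hp.eq_two_or_odd' with rfl | ⟨m, hm⟩
    · apply spider_two σ hc y hy hrel
      intro ζ hζ
      rw [← pow_two]; exact hpow ζ hζ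
    · apply spider_odd σ hc y hy hrel
      intro ζ hζ h2
      have h3 := hpow ζ hζ
      rw [hm, pow_succ, pow_mul, pow_two, h2, one_pow, one_mul] at h3
      exact h3
  have rels : ∀ r ∈ coxRelators Fi23.edges ∪ {r | r ∈ Fi23.extra}, FreeGroup.lift y r = 1 := by
    apply lift_rels
    · intro u _ v _
      exact hrel u v
    · intro r hr
      simp only [Fi23.extra, List.mem_cons, List.mem_nil_iff, or_false] at hr
      rcases hr with rfl | rfl
      · simp only [map_mul, map_pow, FreeGroup.lift_apply_of]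
        exact hS
      · simp only [map_mul, map_pow, FreeGroup.lift_apply_of]
        exact hC9
  let τ : Fi23 →* Γ := PresentedGroup.toGroup rels
  have hστ : σ.comp τ = MonoidHom.id Fi23 := by
    apply PresentedGroup.ext
    intro n
    show σ (τ (PresentedGroup.of n)) = PresentedGroup.of n
    have : τ (PresentedGroup.of n) = y n := PresentedGroup.toGroup.of rels
    rw [this]
    exact hy n
  have hστ' : ∀ g, σ (τ g) = g := fun g => DFunLike.congr_fun hστ g
  have hcomm : commutator Γ ≤ τ.range := by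
    rw [commutator_eq_closure, Subgroup.closure_le]
    rintro _ ⟨a, b, rfl⟩
    obtain ⟨z, hz, ea⟩ := exists_ker_mul σ (a := a) (b := τ (σ a)) (by rw [hστ'])
    obtain ⟨w, hw, eb⟩ := exists_ker_mul σ (a := b) (b := τ (σ b)) (by rw [hστ'])
    have hzc := central_of_ker σ hc hz
    have hwc := central_of_ker σ hc hw
    refine ⟨⁅σ a, σ b⁆, ?_⟩
    rw [map_commutatorElement]
    conv_rhs => rw [ea, eb, ← hzc, ← hwc]
    exact (commutator_central _ _ z w hzc hwc).symm
  have hbot : σ.ker = ⊥ := by
    rw [eq_bot_iff]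
    intro z hz
    obtain ⟨g, rfl⟩ := hcomm (hd hz)
    have h1 : σ (τ g) = 1 := MonoidHom.mem_ker.1 hz
    rw [hστ'] at h1
    rw [h1, map_one]
    exact Subgroup.one_mem _
  rw [hbot, Subgroup.card_bot] at hcard
  exact hp.one_lt.ne hcard

theorem multiplier_Fi23 : HasCyclicSchurMultiplier Fi23 1 := by
  have := fi23_finite
  exact Cfsg.Agent.Lib.Helper28.trivial_multiplier_of_no_prime_stem Fi23
    (fun p Γ _ _ σ hp hσ hcard => no_prime_stem p Γ σ hp hσ hcard)

end Cfsg.Agent.Lib.Helper11.Mult
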