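import Cfsg.Agent.Lib.Helper11.Mult.Comm
import Cfsg.Agent.Lib.Helper11.Mult.E7

/-!
# Normalising the lifted generators
-/

set_option autoImplicit false
set_option maxRecDepth 100000
set_option linter.constructorNameAsVariable false

namespace Cfsg.Agent.Lib.Helper11.Mult

open Cfsg.Spor Cfsg.Agent.Lib.Helper11

/-- the first `E7` subdiagram: `a b c d e f h` -/
def emb7 : WE7.Gen → Fi23.Gen
  | .g => .a | .f => .b | .e => .c | .d => .d | .c => .e | .a => .f | .b => .h

/-- the second `E7` subdiagram: `g f e d c b h` -/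
def emb7' : WE7.Gen → Fi23.Gen
  | .g => .g | .f => .f | .e => .e | .d => .d | .c => .c | .a => .b | .b => .h

theorem label7 (x y : WE7.Gen) : lab (emb7 x) (emb7 y) = coxLabel WE7.edges x y := by
  cases x <;> cases y <;> rfl

theorem label7' (x y : WE7.Gen) : lab (emb7' x) (emb7' y) = coxLabel WE7.edges x y := by
  cases x <;> cases y <;> rfl

section

variable {K : Type*} [Group K] (v : Fi23.Gen → K) (hv : ∀ i k, (v i * v k) ^ lab i k = 1)

include hv

theorem c18 : (v .a * v .b * v .c * v .d * v .e * v .f * v .h) ^ 18 = 1 :=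
  e7_pow18 (fun x => v (emb7 x)) (fun x y => by rw [← label7]; exact hv _ _)

theorem l18 : (v .g * v .f * v .e * v .d * v .c * v .b * v .h) ^ 18 = 1 :=
  e7_pow18 (fun x => v (emb7' x)) (fun x y => by rw [← label7']; exact hv _ _)

theorem l_comm (x : WE7.Gen) : (v .g * v .f * v .e * v .d * v .c * v .b * v .h) ^ 9 * v (emb7' x) =
    v (emb7' x) * (v .g * v .f * v .e * v .d * v .c * v .b * v .h) ^ 9 :=
  e7_comm (fun x => v (emb7' x)) (fun x y => by rw [← label7']; exact hv _ _) x

end

section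

variable {Γ : Type*} [Group Γ] (y : Fi23.Gen → Γ) (z : Γ) (hz : ∀ g, g * z = z * g)
  (hsq : ∀ n, y n * y n = z)
  (hbr : ∀ i k, lab i k = 3 → y i * y k * y i = y k * y i * y k)
  (hcm : ∀ i k, lab i k = 2 → y i * y k = y k * y i)

include hz hsq hbr hcm

/-- tracking the degree: the eighteenth power of the Coxeter element of `E7` -/
theorem c18_deg : (y .a * y .b * y .c * y .d * y .e * y .f * y .h) ^ 18 = z ^ 63 := by
  let w : Γ × Multiplicative ℤ := (z, Multiplicative.ofAdd (-2))
  have hw : ∀ g, g * w = w * g := by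
    intro g
    apply Prod.ext
    · exact hz g.1
    · exact mul_comm _ _
  let N : Subgroup (Γ × Multiplicative ℤ) := Subgroup.zpowers w
  have : N.Normal := by
    constructor
    intro n hn g
    obtain ⟨k, rfl⟩ := Subgroup.mem_zpowers_iff.1 hn
    have : g * w ^ k * g⁻¹ = w ^ k := by
      rw [(Commute.zpow_right (show Commute g w from hw g) k).eq, mul_inv_cancel_right]
    rw [this]
    exact hn
  let t : Multiplicative ℤ := Multiplicative.ofAdd (-1)
  let v : Fi23.Gen → (Γ × Multiplicative ℤ) ⧸ N := fun n => QuotientGroup.mk' N (y n, t)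
  have hv := rel_of_sys v
    (by
      intro n
      show QuotientGroup.mk' N (y n, t) * QuotientGroup.mk' N (y n, t) = 1
      rw [← map_mul]
      apply (QuotientGroup.eq_one_iff _).2
      have : ((y n, t) * (y n, t) : Γ × Multiplicative ℤ) = w := by
        apply Prod.ext
        · exact hsq n
        · rfl
      rw [this]
      exact Subgroup.mem_zpowers w)
    (by
      intro i k h
      show QuotientGroup.mk' N (y i, t) * QuotientGroup.mk' N (y k, t) * QuotientGroup.mk' N (y i, t) =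
        QuotientGroup.mk' N (y k, t) * QuotientGroup.mk' N (y i, t) * QuotientGroup.mk' N (y k, t)
      rw [← map_mul, ← map_mul, ← map_mul, ← map_mul]
      congr 1
      apply Prod.ext
      · exact hbr i k h
      · rfl)
    (by
      intro i k h
      show QuotientGroup.mk' N (y i, t) * QuotientGroup.mk' N (y k, t) =
        QuotientGroup.mk' N (y k, t) * QuotientGroup.mk' N (y i, t)
      rw [← map_mul, ← map_mul]
      congr 1
      apply Prod.ext
      · exact hcm i k h
      · rfl)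
  have h1 := c18 v hv
  have h2 : (v .a * v .b * v .c * v .d * v .e * v .f * v .h) ^ 18 =
      QuotientGroup.mk' N ((y .a * y .b * y .c * y .d * y .e * y .f * y .h) ^ 18,
        Multiplicative.ofAdd (-126)) := by
    show (QuotientGroup.mk' N (y .a, t) * QuotientGroup.mk' N (y .b, t) * QuotientGroup.mk' N (y .c, t) *
      QuotientGroup.mk' N (y .d, t) * QuotientGroup.mk' N (y .e, t) * QuotientGroup.mk' N (y .f, t) *
      QuotientGroup.mk' N (y .h, t)) ^ 18 = _
    rw [← map_mul, ← map_mul, ← map_mul, ← map_mul, ← map_mul, ← map_mul, ← map_pow]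
    congr 1
  rw [h2] at h1
  have h3 := (QuotientGroup.eq_one_iff _).1 h1
  obtain ⟨k, hk⟩ := Subgroup.mem_zpowers_iff.1 h3
  have h4 := congrArg (MonoidHom.fst Γ (Multiplicative ℤ)) hk
  have h5 := congrArg (MonoidHom.snd Γ (Multiplicative ℤ)) hk
  rw [map_zpow] at h4 h5
  have h6 : (Multiplicative.ofAdd (-2 : ℤ)) ^ k = Multiplicative.ofAdd (-126 : ℤ) := h5
  have h7 : k = 63 := by
    have := congrArg Multiplicative.toAdd h6
    rw [toAdd_zpow] at this
    simp only [toAdd_ofAdd, smul_eq_mul] at this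
    omega
  subst h7
  have h8 : z ^ (63 : ℤ) = (y .a * y .b * y .c * y .d * y .e * y .f * y .h) ^ 18 := h4
  rw [← h8]
  exact (zpow_natCast z 63).symm ▸ rfl

end

theorem scale_alg {K : Type*} [Group K] (γ z : K) (hγ : ∀ g, g * γ = γ * g)
    (hγγ : γ * γ = z ^ 63) :
    z * ((γ⁻¹ * z ^ 31) * (γ⁻¹ * z ^ 31)) = 1 ∧ γ * (γ⁻¹ * z ^ 31) ^ 63 = 1 := by
  have c0 : Commute z γ := hγ z
  have c1 : Commute (z ^ 31) γ⁻¹ := (c0.pow_left 31).inv_right
  have huu : (γ⁻¹ * z ^ 31) * (γ⁻¹ * z ^ 31) = z⁻¹ := by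
    rw [Commute.mul_mul_mul_comm c1, ← mul_inv_rev, hγγ]
    group
  refine ⟨by rw [huu, mul_inv_cancel], ?_⟩
  have h7 : (γ⁻¹ * z ^ 31) ^ 63 = ((γ⁻¹ * z ^ 31) * (γ⁻¹ * z ^ 31)) ^ 31 * (γ⁻¹ * z ^ 31) := by
    rw [← pow_two, ← pow_mul, ← pow_succ]
  rw [h7, huu, ← mul_assoc _ γ⁻¹, ((c0.inv_left.pow_left 31).inv_right).eq]
  group

section

variable {Γ : Type*} [Group Γ] (σ : Γ →* Fi23)

theorem exists_norm_lifts (hs : Function.Surjective σ) (hc : σ.ker ≤ Subgroup.center Γ) :
    ∃ y : Fi23.Gen → Γ, (∀ n, σ (y n) = X n) ∧ (∀ i k, (y i * y k) ^ lab i k = 1) ∧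
      (y .a * y .b * y .c * y .d * y .e * y .f * y .h) ^ 9 = 1 := by
  obtain ⟨y, hy, hbr⟩ := exists_lifts σ hs hc
  have hsq := sq_eq σ hc y hy hbr
  have hz := sq_central σ hc y hy .d
  have hcm := cm_all σ hc y hy hbr
  have hz1 : σ (y .d * y .d) = 1 := by rw [map_mul, hy, X_sq]
  generalize y .d * y .d = z at hsq hz hz1
  have h18 := c18_deg y z hz hsq hbr hcm
  have hγ1 : σ ((y .a * y .b * y .c * y .d * y .e * y .f * y .h) ^ 9) = 1 := by
    rw [map_pow, map_mul, map_mul, map_mul, map_mul, map_mul, map_mul, hy, hy, hy, hy, hy, hy, hy]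
    exact X_c9
  have hγγ : (y .a * y .b * y .c * y .d * y .e * y .f * y .h) ^ 9 *
      (y .a * y .b * y .c * y .d * y .e * y .f * y .h) ^ 9 = z ^ 63 := by
    rw [← pow_add]; exact h18
  have hCdef : [y .a, y .b, y .c, y .d, y .e, y .f, y .h].prod =
      y .a * y .b * y .c * y .d * y .e * y .f * y .h := by
    simp only [List.prod_cons, List.prod_nil, mul_one, mul_assoc]
  generalize y .a * y .b * y .c * y .d * y .e * y .f * y .h = C at hγ1 hγγ hCdef
  have hγ := central_of_ker σ hc hγ1
  obtain ⟨a1, a2⟩ := scale_alg (C ^ 9) z hγ hγγ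
  have hu1 : σ ((C ^ 9)⁻¹ * z ^ 31) = 1 := by
    rw [map_mul, map_inv, hγ1, map_pow, hz1, one_pow, inv_one, one_mul]
  have hu := central_of_ker σ hc hu1
  generalize (C ^ 9)⁻¹ * z ^ 31 = u at a1 a2 hu1 hu
  refine ⟨fun n => y n * u, ?_, ?_, ?_⟩
  · intro n
    rw [map_mul, hy, hu1, mul_one]
  · apply rel_of_sys
    · intro n
      show y n * u * (y n * u) = 1
      rw [scale2 u hu, hsq]
      exact a1
    · intro i k h
      show y i * u * (y k * u) * (y i * u) = y k * u * (y i * u) * (y k * u)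
      rw [scale3 u hu, scale3 u hu, hbr i k h]
    · intro i k h
      show y i * u * (y k * u) = y k * u * (y i * u)
      rw [scale2 u hu, scale2 u hu, hcm i k h]
  · have h1 := scale_list u hu [y .a, y .b, y .c, y .d, y .e, y .f, y .h]
    rw [hCdef] at h1
    have h2 : ([y .a, y .b, y .c, y .d, y .e, y .f, y .h].map (fun a => a * u)).prod =
        y .a * u * (y .b * u) * (y .c * u) * (y .d * u) * (y .e * u) * (y .f * u) * (y .h * u) := by
      simp only [List.map_cons, List.map_nil, List.prod_cons, List.prod_nil, mul_one, mul_assoc]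
    rw [h2] at h1
    show (y .a * u * (y .b * u) * (y .c * u) * (y .d * u) * (y .e * u) * (y .f * u) * (y .h * u)) ^ 9 = 1
    rw [h1, Commute.mul_pow (Commute.pow_right (show Commute C u from hu C) _), ← pow_mul]
    exact a2

end

end Cfsg.Agent.Lib.Helper11.Mult
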